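import Mathlib

/-!
# A convexity lemma for signed weights
-/

set_option autoImplicit false

namespace Cfsg.Agent.Lib.Helper78

/-- Signed weights `α` with at most one positive entry, annihilating `d`, `r`, `r²/d`:
all ratios `r/d` on the support agree. -/
theorem exists_ratio_one_of_signed {ι : Type*} [DecidableEq ι] (S : Finset ι) (α d r : ι → ℝ)
    (hd : ∀ i ∈ S, 0 < d i)
    (h0 : ∑ i ∈ S, α i * d i = 0) (h1 : ∑ i ∈ S, α i * r i = 0)
    (h2 : ∑ i ∈ S, α i * r i ^ 2 / d i = 0)
    (i0 : ι) (hi0 : i0 ∈ S) (hα0 : α i0 ≠ 0) (hr0 : r i0 = d i0)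
    (huniq : ∀ i ∈ S, ∀ j ∈ S, 0 < α i → 0 < α j → i = j) :
    ∃ i ∈ S, i ≠ i0 ∧ r i = d i := by
  -- there is a positive and a negative entry
  have hpos : ∃ i ∈ S, 0 < α i := by
    by_contra hcon
    push Not at hcon
    have h3 : ∀ i ∈ S, α i * d i ≤ 0 := fun i hi =>
      mul_nonpos_of_nonpos_of_nonneg (hcon i hi) (hd i hi).le
    have h4 := (Finset.sum_eq_zero_iff_of_nonpos h3).1 h0 i0 hi0
    rcases mul_eq_zero.1 h4 with h | h
    · exact hα0 h
    · exact (hd i0 hi0).ne' h
  have hneg : ∃ i ∈ S, α i < 0 := by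
    by_contra hcon
    push Not at hcon
    have h3 : ∀ i ∈ S, 0 ≤ α i * d i := fun i hi => mul_nonneg (hcon i hi) (hd i hi).le
    have h4 := (Finset.sum_eq_zero_iff_of_nonneg h3).1 h0 i0 hi0
    rcases mul_eq_zero.1 h4 with h | h
    · exact hα0 h
    · exact (hd i0 hi0).ne' h
  obtain ⟨a, haS, ha⟩ := hpos
  obtain ⟨b, hbS, hb⟩ := hneg
  set ρ : ℝ := r a / d a with hρ
  have hF : ∑ i ∈ S, α i * (r i - ρ * d i) ^ 2 / d i = 0 := by
    have h5 : ∀ i ∈ S, α i * (r i - ρ * d i) ^ 2 / d i
        = α i * r i ^ 2 / d i - 2 * ρ * (α i * r i) + ρ ^ 2 * (α i * d i) := by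
      intro i hi
      have := (hd i hi).ne'
      field_simp
      ring
    rw [Finset.sum_congr rfl h5, Finset.sum_add_distrib, Finset.sum_sub_distrib,
      ← Finset.mul_sum, ← Finset.mul_sum, h0, h1, h2]
    ring
  have hle : ∀ i ∈ S, α i * (r i - ρ * d i) ^ 2 / d i ≤ 0 := by
    intro i hi
    by_cases hia : i = a
    · subst hia
      have : r i - ρ * d i = 0 := by
        rw [hρ]
        have := (hd i hi).ne'
        field_simp
        ring
      rw [this]; simp
    · have hαi : α i ≤ 0 := by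
        by_contra hcon
        push Not at hcon
        exact hia (huniq i hi a haS hcon ha)
      apply div_nonpos_of_nonpos_of_nonneg _ (hd i hi).le
      exact mul_nonpos_of_nonpos_of_nonneg hαi (sq_nonneg _)
  have hz := (Finset.sum_eq_zero_iff_of_nonpos hle).1 hF
  have hratio : ∀ i ∈ S, α i < 0 → r i = ρ * d i := by
    intro i hi hαi
    have h6 := hz i hi
    rw [div_eq_zero_iff] at h6
    rcases h6 with h6 | h6
    · rcases mul_eq_zero.1 h6 with h7 | h7
      · exact absurd h7 hαi.ne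
      · have := pow_eq_zero_iff (two_ne_zero) |>.1 h7
        linarith
    · exact absurd h6 (hd i hi).ne'
  have hra : r a = ρ * d a := by
    rw [hρ]
    have := (hd a haS).ne'
    field_simp
  -- `ρ = 1`
  have hρ1 : ρ = 1 := by
    have h7 : r i0 = ρ * d i0 := by
      rcases lt_or_gt_of_ne hα0 with h | h
      · exact hratio i0 hi0 h
      · rw [huniq i0 hi0 a haS h ha]; exact hra
    rw [hr0] at h7
    have := (hd i0 hi0).ne'
    field_simp at h7
    exact h7.symm
  by_cases hai : a = i0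
  · refine ⟨b, hbS, ?_, ?_⟩
    · intro hbi
      rw [hbi, ← hai] at hb
      exact lt_asymm ha hb
    · rw [hratio b hbS hb, hρ1, one_mul]
  · exact ⟨a, haS, hai, by rw [hra, hρ1, one_mul]⟩

end Cfsg.Agent.Lib.Helper78
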