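import Mathlib
import Cfsg.Prelude.Def_Blocks
import Cfsg.Agent.Lib.Helper78.RegInner
import Cfsg.Agent.Lib.Helper78.BlockOrth

/-!
# Blocks are the connected components of the linkage relation `[χ,ψ]° ≠ 0` (helper78)

In particular the partition into blocks does not depend on the maximal ideal `M ∋ p`.
-/

set_option autoImplicit false

namespace Cfsg.Agent.Lib.Helper78

open Cfsg
open scoped ComplexConjugate

variable {G : Type*} [Group G] [Fintype G]
variable {M : Ideal AlgInt} {p : ℕ}

/-- two irreducible characters are linked if they are not orthogonal on `p`-regular elements -/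
def Linked (p : ℕ) (χ ψ : IrrCharacter G) : Prop :=
  classInner (tilde p (χ : G → ℂ)) (ψ : G → ℂ) ≠ 0

/-- the connected component of `χ` -/
def linkComp (p : ℕ) (χ : IrrCharacter G) : Set (IrrCharacter G) :=
  {ψ | Relation.ReflTransGen (Linked p) χ ψ}

theorem mem_linkComp_self (p : ℕ) (χ : IrrCharacter G) : χ ∈ linkComp p χ :=
  Relation.ReflTransGen.refl

theorem classInner_tilde_eq_zero_of_linkComp {χ ζ ξ : IrrCharacter G} (hζ : ζ ∈ linkComp p χ)
    (hξ : ξ ∉ linkComp p χ) : classInner (tilde p (ζ : G → ℂ)) (ξ : G → ℂ) = 0 := by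
  by_contra hne
  exact hξ (Relation.ReflTransGen.tail hζ hne)

theorem classInner_tilde_eq_zero_of_linkComp' {χ ζ ξ : IrrCharacter G} (hζ : ζ ∉ linkComp p χ)
    (hξ : ξ ∈ linkComp p χ) : classInner (tilde p (ζ : G → ℂ)) (ξ : G → ℂ) = 0 := by
  rw [classInner_tilde_symm, classInner_tilde_eq_zero_of_linkComp hξ hζ, map_zero]

theorem linkComp_subset_blockOf (h : IsPModular p M) (χ : IrrCharacter G) :
    linkComp p χ ⊆ blockOf M (χ : G → ℂ) := by
  have hM := pmod_isPrime h
  intro ψ hψ
  induction hψ with
  | refl => exact mem_blockOf_self hM χ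
  | tail _ hbc ih =>
    by_contra hcon
    exact hbc (classInner_tilde_eq_zero h (isPBlock_blockOf χ) ih hcon)

open Classical in
theorem tilde_apply_eq_sum (p : ℕ) (ζ : IrrCharacter G) (x : G) :
    tilde p (ζ : G → ℂ) x = ∑ ξ : IrrCharacter G,
      classInner (tilde p (ζ : G → ℂ)) (ξ : G → ℂ) * (ξ : G → ℂ) x := by
  have := Helper3.classFunction_expansion (tilde_isClassFunction p (irr_isClassFunction ζ))
  conv_lhs => rw [this]
  rw [Finset.sum_apply]
  rfl

open Classical in
/-- weak block orthogonality for a linkage component -/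
theorem blockKer_linkComp_eq_zero (hp : p.Prime) (χ : IrrCharacter G) (x y : G)
    (hx : ¬ p ∣ orderOf x) (hy : p ∣ orderOf y) : blockKer (linkComp p χ) x y = 0 := by
  have hP : ((p ^ (Nat.card G).factorization p : ℕ) : ℂ) ≠ 0 := by
    exact_mod_cast pow_ne_zero _ hp.ne_zero
  apply mul_left_cancel₀ hP
  rw [mul_zero]
  unfold blockKer
  rw [Finset.mul_sum]
  have h1 : ∀ ζ : IrrCharacter G, ((p ^ (Nat.card G).factorization p : ℕ) : ℂ) *
      (if ζ ∈ linkComp p χ then (ζ : G → ℂ) x * conj ((ζ : G → ℂ) y) else 0)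
      = ∑ ξ : IrrCharacter G, (if ξ ∈ linkComp p χ then (ξ : G → ℂ) x *
        (classInner (tilde p (ζ : G → ℂ)) (ξ : G → ℂ) * conj ((ζ : G → ℂ) y)) else 0) := by
    intro ζ
    by_cases hζ : ζ ∈ linkComp p χ
    · rw [if_pos hζ]
      have h2 : ((p ^ (Nat.card G).factorization p : ℕ) : ℂ) * (ζ : G → ℂ) x
          = tilde p (ζ : G → ℂ) x := by
        unfold tilde
        rw [if_neg hx]
      rw [← mul_assoc, h2, tilde_apply_eq_sum, Finset.sum_mul]
      refine Finset.sum_congr rfl fun ξ _ => ?_
      split_ifs with hξ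
      · ring
      · rw [classInner_tilde_eq_zero_of_linkComp hζ hξ]; ring
    · rw [if_neg hζ, mul_zero]
      symm
      apply Finset.sum_eq_zero
      intro ξ _
      split_ifs with hξ
      · rw [classInner_tilde_eq_zero_of_linkComp' hζ hξ]; ring
      · rfl
  rw [Finset.sum_congr rfl fun ζ _ => h1 ζ, Finset.sum_comm]
  apply Finset.sum_eq_zero
  intro ξ _
  split_ifs with hξ
  · rw [← Finset.mul_sum]
    have h3 : ∑ ζ : IrrCharacter G, classInner (tilde p (ζ : G → ℂ)) (ξ : G → ℂ) *
        conj ((ζ : G → ℂ) y) = conj (tilde p (ξ : G → ℂ) y) := by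
      rw [tilde_apply_eq_sum, map_sum]
      refine Finset.sum_congr rfl fun ζ _ => ?_
      rw [map_mul, ← classInner_tilde_symm]
    rw [h3]
    unfold tilde
    rw [if_pos hy]
    simp
  · simp

/-- the idempotent of a linkage component has local integer coefficients -/
theorem memLocalRing_blockCoeff_linkComp (h : IsPModular p M) (χ : IrrCharacter G) (g : G) :
    MemLocalRing M (blockCoeff (linkComp p χ) g) := by
  classical
  have hM := pmod_isPrime h
  have : Fact p.Prime := ⟨h.1⟩
  have e1 : blockCoeff (linkComp p χ) g = (Nat.card G : ℂ)⁻¹ * blockKer (linkComp p χ) 1 g := by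
    unfold blockCoeff
    rw [blockKer_eq_finsum]
  rw [e1]
  by_cases hg : p ∣ orderOf g
  · rw [blockKer_linkComp_eq_zero h.1 χ 1 g (by simp [h.1.one_lt.ne']) hg, mul_zero]
    exact memLocalRing_zero hM
  · obtain ⟨P⟩ : Nonempty (Sylow p G) := inferInstance
    choose n hn using fun η : IrrCharacter G => Helper74.IsCharacter.classInner_irr_nat
      (Helper74.IsCharacter.restrict (Helper74.IrrCharacter.isCharacter η) (P : Subgroup G))
      (trivIrr (P : Subgroup G))
    have hPc : (Nat.card (P : Subgroup G) : ℂ) ≠ 0 := by exact_mod_cast Nat.card_pos.ne'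
    have hn' : ∀ η : IrrCharacter G, ∑ u : (P : Subgroup G), (η : G → ℂ) u
        = (Nat.card (P : Subgroup G) : ℂ) * (n η : ℂ) := by
      intro η
      have h1 := hn η
      unfold classInner at h1
      rw [← h1, mul_inv_cancel_left₀ hPc]
      refine Finset.sum_congr rfl fun u _ => ?_
      simp [trivIrr]
    have h2 : ∑ u : (P : Subgroup G), blockKer (linkComp p χ) (u : G) g
        = blockKer (linkComp p χ) 1 g := by
      rw [Finset.sum_eq_single 1]
      · rfl
      · intro u _ hu
        have hu1 : (u : G) ≠ 1 := fun h => hu (Subtype.ext h)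
        have hsing : p ∣ orderOf (u : G) := by
          obtain ⟨k, hk⟩ := (IsPGroup.iff_orderOf.1 P.2) u
          rw [Subgroup.orderOf_coe, hk]
          rcases Nat.eq_zero_or_pos k with rfl | hk0
          · rw [pow_zero, orderOf_eq_one_iff] at hk
            exact absurd hk hu
          · exact dvd_pow_self p hk0.ne'
        rw [← blockKer_conj, blockKer_linkComp_eq_zero h.1 χ g u hg hsing, map_zero]
      · intro hh; exact absurd (Finset.mem_univ _) hh
    have h3 : ∑ u : (P : Subgroup G), blockKer (linkComp p χ) (u : G) g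
        = (Nat.card (P : Subgroup G) : ℂ) * ∑ η : IrrCharacter G,
          if η ∈ linkComp p χ then (n η : ℂ) * conj ((η : G → ℂ) g) else 0 := by
      unfold blockKer
      rw [Finset.sum_comm, Finset.mul_sum]
      refine Finset.sum_congr rfl fun η _ => ?_
      split_ifs
      · rw [← Finset.sum_mul, hn']; ring
      · simp
    rw [← h2, h3, ← mul_assoc]
    refine MemLocalRing.mul hM ?_ (MemLocalRing.sum hM _ _ fun η _ => ?_)
    · rw [inv_mul_eq_div]
      refine memLocalRing_natCast_div h Nat.card_pos.ne' ?_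
      rw [P.card_eq_multiplicity, Nat.Prime.factorization_pow h.1, Finsupp.single_eq_same]
    · split_ifs
      · exact MemLocalRing.mul hM (memLocalRing_natCast hM _) (memLocalRing_conj_irr hM η g)
      · exact memLocalRing_zero hM

/-- **Blocks are linkage components.** -/
theorem blockOf_eq_linkComp (h : IsPModular p M) (χ : IrrCharacter G) :
    blockOf M (χ : G → ℂ) = linkComp p χ :=
  Set.Subset.antisymm
    (blockOf_subset_of_memLocalRing (pmod_isPrime h) (memLocalRing_blockCoeff_linkComp h χ)
      (mem_linkComp_self p χ))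
    (linkComp_subset_blockOf h χ)

/-- the blocks do not depend on the maximal ideal -/
theorem blockOf_eq_blockOf {M' : Ideal AlgInt} (h : IsPModular p M) (h' : IsPModular p M')
    (χ : IrrCharacter G) : blockOf M (χ : G → ℂ) = blockOf M' (χ : G → ℂ) := by
  rw [blockOf_eq_linkComp h, blockOf_eq_linkComp h']

end Cfsg.Agent.Lib.Helper78
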