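import Mathlib
import Cfsg.Prelude.Def_Blocks
import Cfsg.Agent.Lib.Helper78.Linkage
import Cfsg.Agent.Lib.Helper76.GaloisChar
import Cfsg.Agent.Lib.Helper15.CyclicGl

/-!
# Galois conjugation (power twists) permutes the blocks (helper78)

`powTw k hk χ = (g ↦ χ (g ^ k))` for `k` prime to `|G|`.  Blocks are linkage components, and the
linkage numbers are invariant under power twists, hence power twists permute the blocks and fix the
principal block.  Consequence: `∑_{χ ∈ B₀} |χ(x)|²` is a rational integer.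
-/

set_option autoImplicit false

namespace Cfsg.Agent.Lib.Helper78

open Cfsg
open scoped ComplexConjugate

variable {G : Type*} [Group G] [Fintype G]
variable {M : Ideal AlgInt} {p : ℕ}

/-- the Galois conjugate `g ↦ χ (g ^ k)` -/
def powTw (k : ℕ) (hk : k.Coprime (Nat.card G)) (χ : IrrCharacter G) : IrrCharacter G :=
  ⟨fun g => (χ : G → ℂ) (g ^ k), Helper76.isIrrCharacter_pow_coprime χ.2 hk⟩

theorem powTw_apply (k : ℕ) (hk : k.Coprime (Nat.card G)) (χ : IrrCharacter G) (g : G) :
    (powTw k hk χ : G → ℂ) g = (χ : G → ℂ) (g ^ k) := rfl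

theorem powTw_injective (k : ℕ) (hk : k.Coprime (Nat.card G)) :
    Function.Injective (powTw (G := G) k hk) := by
  intro χ ψ h
  apply Subtype.ext
  funext g
  obtain ⟨y, rfl⟩ := (powCoprime hk.symm).surjective g
  have := congrArg (fun t : IrrCharacter G => (t : G → ℂ) y) h
  simpa [powTw_apply] using this

omit [Fintype G] in
theorem orderOf_pow_of_coprime_card (k : ℕ) (hk : k.Coprime (Nat.card G)) (g : G) :
    orderOf (g ^ k) = orderOf g :=
  Nat.Coprime.orderOf_pow (Nat.Coprime.coprime_dvd_left (orderOf_dvd_natCard g) hk.symm)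

theorem classInner_tilde_powTw (k : ℕ) (hk : k.Coprime (Nat.card G)) (χ ψ : IrrCharacter G) :
    classInner (tilde p (powTw k hk χ : G → ℂ)) (powTw k hk ψ : G → ℂ) =
      classInner (tilde p (χ : G → ℂ)) (ψ : G → ℂ) := by
  unfold classInner
  congr 1
  conv_rhs => rw [← Equiv.sum_comp (powCoprime hk.symm)]
  refine Finset.sum_congr rfl fun g _ => ?_
  simp only [tilde, powTw_apply, powCoprime_apply, orderOf_pow_of_coprime_card k hk g]

theorem powTw_mem_linkComp (k : ℕ) (hk : k.Coprime (Nat.card G)) {χ ψ : IrrCharacter G}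
    (h : ψ ∈ linkComp p χ) : powTw k hk ψ ∈ linkComp p (powTw k hk χ) := by
  induction h with
  | refl => exact Relation.ReflTransGen.refl
  | tail _ hbc ih =>
    refine Relation.ReflTransGen.tail ih ?_
    unfold Linked at hbc ⊢
    rwa [classInner_tilde_powTw]

/-- power twists permute the blocks -/
theorem powTw_mem_blockOf (h : IsPModular p M) (k : ℕ) (hk : k.Coprime (Nat.card G))
    {χ ψ : IrrCharacter G} (hψ : ψ ∈ blockOf M (χ : G → ℂ)) :
    powTw k hk ψ ∈ blockOf M (powTw k hk χ : G → ℂ) := by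
  rw [blockOf_eq_linkComp h] at hψ ⊢
  exact powTw_mem_linkComp k hk hψ

/-- power twists fix the principal block -/
theorem powTw_mem_principalBlock (h : IsPModular p M) (k : ℕ) (hk : k.Coprime (Nat.card G))
    {ψ : IrrCharacter G} (hψ : ψ ∈ principalBlock M G) : powTw k hk ψ ∈ principalBlock M G :=
  powTw_mem_blockOf h k hk (χ := trivIrr G) hψ

open Classical in
/-- a sum over a twist-stable set is invariant under the twist -/
theorem sum_powTw_of_stable {A : Type*} [AddCommMonoid A] (k : ℕ) (hk : k.Coprime (Nat.card G))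
    (B : Set (IrrCharacter G)) (hB : ∀ ψ ∈ B, powTw k hk ψ ∈ B) (f : IrrCharacter G → A) :
    ∑ χ ∈ Finset.univ.filter (· ∈ B), f (powTw k hk χ) = ∑ χ ∈ Finset.univ.filter (· ∈ B), f χ := by
  set F : Finset (IrrCharacter G) := Finset.univ.filter (· ∈ B) with hF
  have himg : F.image (powTw k hk) = F := by
    apply Finset.eq_of_subset_of_card_le
    · intro χ hχ
      obtain ⟨ψ, hψ, rfl⟩ := Finset.mem_image.1 hχ
      exact Finset.mem_filter.2 ⟨Finset.mem_univ _, hB ψ (Finset.mem_filter.1 hψ).2⟩
    · rw [Finset.card_image_of_injective _ (powTw_injective k hk)]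
  conv_rhs => rw [← himg]
  rw [Finset.sum_image (fun a _ b _ hab => powTw_injective k hk hab)]

open Classical in
/-- `∑_{χ ∈ B} |χ(x)|²` is a rational integer when `B` is stable under all power twists. -/
theorem exists_int_sum_normSq (B : Set (IrrCharacter G))
    (hB : ∀ (k : ℕ) (hk : k.Coprime (Nat.card G)), ∀ ψ ∈ B, powTw k hk ψ ∈ B) (x : G) :
    ∃ z : ℤ, ∑ χ ∈ Finset.univ.filter (· ∈ B), (χ : G → ℂ) x * conj ((χ : G → ℂ) x) = z := by
  set F : Finset (IrrCharacter G) := Finset.univ.filter (· ∈ B) with hF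
  have hchar : IsCharacter G (∑ χ ∈ F, (χ : G → ℂ) * fun g => conj ((χ : G → ℂ) g)) :=
    Helper3.IsCharacter.sum _ _ fun χ _ =>
      Helper3.IsCharacter.mul (Helper3.IsIrrCharacter.isCharacter χ.2)
        (Helper3.IsCharacter.conj (Helper3.IsIrrCharacter.isCharacter χ.2))
  obtain ⟨z, hz⟩ := Helper15.exists_int_of_pow_eq hchar x (by
    intro k hk
    simp only [Finset.sum_apply, Pi.mul_apply]
    exact sum_powTw_of_stable k hk B (hB k hk)
      (fun χ => (χ : G → ℂ) x * conj ((χ : G → ℂ) x)))
  refine ⟨z, ?_⟩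
  rw [← hz]
  simp only [Finset.sum_apply, Pi.mul_apply]

end Cfsg.Agent.Lib.Helper78
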