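import Mathlib

/-!
# Knörr's lattice inequality for abelian groups (helper78)

`H` a finite abelian group, `E = H →* ℂˣ` its dual.  For a list `L` of subgroups of `H` with trivial
intersection, the weight `W(g) = ∏_{K ∈ L} (1 + [H:K]·[g ∉ K])` satisfies
`(1/|H|) ∑_g W(g) ν(F(g)) ≥ |H|` for every non-zero `F` whose Fourier coefficients lie in a "lattice"
`𝒜` (an additive group on which `ν ≥ 1` off zero).
-/

set_option autoImplicit false

namespace Cfsg.Agent.Lib.Helper78.Knorr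

open scoped ComplexConjugate

section Comb

variable {E Z : Type*} [CommGroup E] [Fintype E] [AddGroup Z]

open Classical in
/-- the `Φ`-saturation of the support of `c` -/
noncomputable def sat (c : E → Z) (Φ : Subgroup E) : Finset E :=
  Finset.univ.filter (fun l => ∃ φ ∈ Φ, c (l * φ) ≠ 0)

theorem mem_sat (c : E → Z) (Φ : Subgroup E) (l : E) :
    l ∈ sat c Φ ↔ ∃ φ ∈ Φ, c (l * φ) ≠ 0 := by
  classical
  simp [sat]

theorem card_sat_sup (c : E → Z) (A Φ : Subgroup E) [Fintype A] :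
    2 * (sat c (A ⊔ Φ)).card ≤ 2 * (sat c Φ).card +
      ∑ a : A, (sat (fun l => c l - c (l * (a : E)⁻¹)) Φ).card := by
  classical
  set S := sat c Φ with hS
  set T := sat c (A ⊔ Φ) with hT
  let P : E → Finset E := fun a => Finset.univ.filter (fun l => l ∉ S ∧ l * a⁻¹ ∈ S)
  let R : E → Finset E := fun a => Finset.univ.filter (fun l => l ∈ S ∧ l * a⁻¹ ∉ S)
  have h1 : ∀ a : E, (P a).card + (R a).card ≤ (sat (fun l => c l - c (l * a⁻¹)) Φ).card := by
    intro a
    rw [← Finset.card_union_of_disjoint]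
    · apply Finset.card_le_card
      intro l hl
      rw [mem_sat]
      rcases Finset.mem_union.1 hl with hl | hl
      · obtain ⟨h1, h2⟩ := (Finset.mem_filter.1 hl).2
        obtain ⟨φ, hφ, hc⟩ := (mem_sat c Φ _).1 h2
        refine ⟨φ, hφ, ?_⟩
        have h3 : c (l * φ) = 0 := by
          by_contra hne
          exact h1 ((mem_sat c Φ _).2 ⟨φ, hφ, hne⟩)
        have h4 : l * φ * a⁻¹ = l * a⁻¹ * φ := by rw [mul_assoc, mul_comm φ, ← mul_assoc]
        simp only [h3, h4, zero_sub, ne_eq, neg_eq_zero]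
        exact hc
      · obtain ⟨h1, h2⟩ := (Finset.mem_filter.1 hl).2
        obtain ⟨φ, hφ, hc⟩ := (mem_sat c Φ _).1 h1
        refine ⟨φ, hφ, ?_⟩
        have h4 : l * φ * a⁻¹ = l * a⁻¹ * φ := by rw [mul_assoc, mul_comm φ, ← mul_assoc]
        have h3 : c (l * φ * a⁻¹) = 0 := by
          by_contra hne
          rw [h4] at hne
          exact h2 ((mem_sat c Φ _).2 ⟨φ, hφ, hne⟩)
        simp only [h3, sub_zero]
        exact hc
    · rw [Finset.disjoint_left]
      intro l hl hl'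
      exact (Finset.mem_filter.1 hl).2.1 (Finset.mem_filter.1 hl').2.1
  have h2 : ∀ a : E, (R a).card = (P a⁻¹).card := by
    intro a
    apply Finset.card_bij (fun l _ => l * a⁻¹)
    · intro l hl
      obtain ⟨h1, h2⟩ := (Finset.mem_filter.1 hl).2
      refine Finset.mem_filter.2 ⟨Finset.mem_univ _, h2, ?_⟩
      rw [inv_inv, inv_mul_cancel_right]
      exact h1
    · intro l _ l' _ h
      exact mul_right_cancel h
    · intro m hm
      obtain ⟨h1, h2⟩ := (Finset.mem_filter.1 hm).2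
      rw [inv_inv] at h2
      refine ⟨m * a, Finset.mem_filter.2 ⟨Finset.mem_univ _, h2, ?_⟩, mul_inv_cancel_right _ _⟩
      rw [mul_inv_cancel_right]
      exact h1
  have h3 : T \ S ⊆ Finset.univ.biUnion (fun a : A => P (a : E)) := by
    intro l hl
    obtain ⟨hlT, hlS⟩ := Finset.mem_sdiff.1 hl
    obtain ⟨ψ, hψ, hc⟩ := (mem_sat c _ _).1 hlT
    obtain ⟨a, ha, φ, hφ, rfl⟩ := Subgroup.mem_sup.1 hψ
    refine Finset.mem_biUnion.2 ⟨⟨a⁻¹, A.inv_mem ha⟩, Finset.mem_univ _, ?_⟩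
    refine Finset.mem_filter.2 ⟨Finset.mem_univ _, hlS, ?_⟩
    rw [inv_inv]
    refine (mem_sat c Φ _).2 ⟨φ, hφ, ?_⟩
    rwa [mul_assoc]
  have h4 : (T \ S).card ≤ ∑ a : A, (P (a : E)).card :=
    (Finset.card_le_card h3).trans Finset.card_biUnion_le
  have h5 : T.card ≤ S.card + (T \ S).card := by
    have := Finset.card_le_card_sdiff_add_card (s := T) (t := S)
    omega
  have h6 : ∑ a : A, (R (a : E)).card = ∑ a : A, (P (a : E)).card := by
    rw [← Equiv.sum_comp (Equiv.inv A) (fun a : A => (P (a : E)).card)]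
    refine Finset.sum_congr rfl fun a _ => ?_
    rw [h2]
    rfl
  have h7 : ∑ a : A, ((P (a : E)).card + (R (a : E)).card) ≤
      ∑ a : A, (sat (fun l => c l - c (l * (a : E)⁻¹)) Φ).card :=
    Finset.sum_le_sum fun a _ => h1 a
  rw [Finset.sum_add_distrib, h6] at h7
  omega

end Comb

section Fourier

variable {H : Type*} [CommGroup H] [Fintype H] {J : Type*} [Fintype J]

theorem norm_apply (l : H →* ℂˣ) (g : H) : ‖((l g : ℂˣ) : ℂ)‖ = 1 := by
  apply Complex.norm_eq_one_of_pow_eq_one (n := Fintype.card H) _ Fintype.card_ne_zero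
  rw [← Units.val_pow_eq_pow_val, ← map_pow, pow_card_eq_one, map_one, Units.val_one]

theorem conj_apply (l : H →* ℂˣ) (g : H) : conj ((l g : ℂˣ) : ℂ) = ((l⁻¹ g : ℂˣ) : ℂ) := by
  rw [MonoidHom.inv_apply, Units.val_inv_eq_inv_val, Complex.inv_eq_conj (norm_apply l g)]

/-- the annihilator of `K` in the dual group -/
def annS (K : Subgroup H) : Subgroup (H →* ℂˣ) where
  carrier := {a | ∀ k ∈ K, a k = 1}
  one_mem' := fun _ _ => rfl
  mul_mem' := fun {a b} ha hb k hk => by rw [MonoidHom.mul_apply, ha k hk, hb k hk, one_mul]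
  inv_mem' := fun {a} ha k hk => by rw [MonoidHom.inv_apply, ha k hk, inv_one]

omit [Fintype H] in
theorem mem_annS (K : Subgroup H) (a : H →* ℂˣ) : a ∈ annS K ↔ ∀ k ∈ K, a k = 1 := Iff.rfl

noncomputable instance dualFintype : Fintype (H →* ℂˣ) := Fintype.ofFinite _

noncomputable instance annFintype (K : Subgroup H) : Fintype (annS K) := Fintype.ofFinite _

theorem card_annS (K : Subgroup H) : Fintype.card (annS K) = K.index := by
  have h1 : annS K = (MonoidHom.domRestrictHom K ℂˣ).ker := by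
    ext a
    rw [mem_annS, MonoidHom.mem_ker, MonoidHom.domRestrictHom_apply, MonoidHom.domRestrict_eq_one_iff]
  rw [← Nat.card_eq_fintype_card, h1, CommGroup.card_domRestrictHom_ker ℂ K]
  rfl

theorem card_dual : Fintype.card (H →* ℂˣ) = Fintype.card H := by
  rw [← Nat.card_eq_fintype_card, CommGroup.card_monoidHom_of_hasEnoughRootsOfUnity H ℂ,
    Nat.card_eq_fintype_card]

open Classical in
theorem sum_annS (K : Subgroup H) (g : H) :
    ∑ a : annS K, (((a : H →* ℂˣ) g : ℂˣ) : ℂ) = if g ∈ K then (K.index : ℂ) else 0 := by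
  split_ifs with hg
  · have : ∀ a : annS K, (((a : H →* ℂˣ) g : ℂˣ) : ℂ) = 1 := fun a => by rw [a.2 g hg]; rfl
    simp only [this, Finset.sum_const, Finset.card_univ, nsmul_eq_mul, mul_one]
    rw [card_annS]
  · obtain ⟨b, hb, hbg⟩ : ∃ b : H →* ℂˣ, (∀ y ∈ K, b y = 1) ∧ b g ≠ 1 := by
      by_contra hcon
      push Not at hcon
      exact hg ((CommGroup.forall_monoidHom_apply_eq_one_iff ℂ K g).1 hcon)
    set S := ∑ a : annS K, (((a : H →* ℂˣ) g : ℂˣ) : ℂ) with hS
    have h1 : ((b g : ℂˣ) : ℂ) * S = S := by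
      rw [hS, Finset.mul_sum]
      rw [← Equiv.sum_comp (Equiv.mulLeft (⟨b, hb⟩ : annS K))
        (fun a : annS K => (((a : H →* ℂˣ) g : ℂˣ) : ℂ))]
      refine Finset.sum_congr rfl fun a _ => ?_
      simp [MonoidHom.mul_apply]
    have h2 : (((b g : ℂˣ) : ℂ) - 1) * S = 0 := by rw [sub_mul, h1, one_mul, sub_self]
    rcases mul_eq_zero.1 h2 with h3 | h3
    · exfalso
      apply hbg
      apply Units.ext
      rw [Units.val_one]
      exact sub_eq_zero.1 h3
    · exact h3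

open Classical in
/-- dual orthogonality -/
theorem sum_dual (g : H) :
    ∑ a : H →* ℂˣ, ((a g : ℂˣ) : ℂ) = if g = 1 then (Fintype.card H : ℂ) else 0 := by
  split_ifs with hg
  · subst hg
    simp [card_dual]
  · obtain ⟨b, hbg⟩ := CommGroup.exists_apply_ne_one_of_hasEnoughRootsOfUnity H ℂ hg
    set S := ∑ a : H →* ℂˣ, ((a g : ℂˣ) : ℂ) with hS
    have h1 : ((b g : ℂˣ) : ℂ) * S = S := by
      rw [hS, Finset.mul_sum]
      rw [← Equiv.sum_comp (Equiv.mulLeft b) (fun a : H →* ℂˣ => ((a g : ℂˣ) : ℂ))]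
      refine Finset.sum_congr rfl fun a _ => ?_
      simp [MonoidHom.mul_apply]
    have h2 : (((b g : ℂˣ) : ℂ) - 1) * S = 0 := by rw [sub_mul, h1, one_mul, sub_self]
    rcases mul_eq_zero.1 h2 with h3 | h3
    · exfalso
      apply hbg
      apply Units.ext
      rw [Units.val_one]
      exact sub_eq_zero.1 h3
    · exact h3

/-- squared norm -/
noncomputable def nu (z : J → ℂ) : ℝ := ∑ j, ‖z j‖ ^ 2

theorem nu_nonneg (z : J → ℂ) : 0 ≤ nu z := Finset.sum_nonneg fun _ _ => by positivity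

theorem nu_eq_zero {z : J → ℂ} (h : nu z = 0) : z = 0 := by
  funext j
  have := (Finset.sum_eq_zero_iff_of_nonneg (fun j _ => by positivity)).1 h j (Finset.mem_univ _)
  simpa using this

/-- Fourier coefficients -/
noncomputable def coef (F : H → J → ℂ) (l : H →* ℂˣ) : J → ℂ :=
  fun j => (Fintype.card H : ℂ)⁻¹ * ∑ g, conj ((l g : ℂˣ) : ℂ) * F g j

/-- weighted norm -/
noncomputable def Psi (W : H → ℝ) (F : H → J → ℂ) : ℝ :=
  (Fintype.card H : ℝ)⁻¹ * ∑ g, W g * nu (F g)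

/-- multiplication by `1 - a` -/
def tw (a : H →* ℂˣ) (F : H → J → ℂ) : H → J → ℂ := fun g j => (1 - ((a g : ℂˣ) : ℂ)) * F g j

omit [Fintype J] in
theorem coef_tw (a : H →* ℂˣ) (F : H → J → ℂ) (l : H →* ℂˣ) :
    coef (tw a F) l = coef F l - coef F (l * a⁻¹) := by
  funext j
  simp only [coef, tw, Pi.sub_apply]
  rw [← mul_sub, ← Finset.sum_sub_distrib]
  congr 1
  refine Finset.sum_congr rfl fun g _ => ?_
  have h1 : conj (((l * a⁻¹) g : ℂˣ) : ℂ) = conj ((l g : ℂˣ) : ℂ) * ((a g : ℂˣ) : ℂ) := by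
    rw [MonoidHom.mul_apply, Units.val_mul, map_mul, conj_apply a⁻¹, MonoidHom.inv_apply,
      MonoidHom.inv_apply, inv_inv]
  rw [h1]
  ring

theorem parseval_scalar (f : H → ℂ) :
    ∑ l : H →* ℂˣ, ‖(Fintype.card H : ℂ)⁻¹ * ∑ g, conj ((l g : ℂˣ) : ℂ) * f g‖ ^ 2
      = (Fintype.card H : ℝ)⁻¹ * ∑ g, ‖f g‖ ^ 2 := by
  classical
  have hH : (Fintype.card H : ℂ) ≠ 0 := by exact_mod_cast Fintype.card_ne_zero
  have key : ((∑ l : H →* ℂˣ, ‖(Fintype.card H : ℂ)⁻¹ * ∑ g, conj ((l g : ℂˣ) : ℂ) * f g‖ ^ 2 : ℝ) : ℂ)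
      = (((Fintype.card H : ℝ)⁻¹ * ∑ g, ‖f g‖ ^ 2 : ℝ) : ℂ) := by
    push_cast
    have h1 : ∀ l : H →* ℂˣ,
        ((‖(Fintype.card H : ℂ)⁻¹ * ∑ g, conj ((l g : ℂˣ) : ℂ) * f g‖ : ℝ) : ℂ) ^ 2
        = (Fintype.card H : ℂ)⁻¹ ^ 2 * ∑ g, ∑ g', f g * conj (f g') *
            (((l (g' * g⁻¹) : ℂˣ) : ℂ)) := by
      intro l
      rw [← Complex.mul_conj']
      rw [map_mul, map_inv₀, Complex.conj_natCast, map_sum]
      rw [mul_mul_mul_comm, ← sq, Finset.sum_mul_sum]
      congr 1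
      refine Finset.sum_congr rfl fun g _ => Finset.sum_congr rfl fun g' _ => ?_
      rw [map_mul, Complex.conj_conj, map_mul, map_inv, Units.val_mul, conj_apply,
        MonoidHom.inv_apply]
      ring
    rw [Finset.sum_congr rfl (fun l _ => h1 l), ← Finset.mul_sum, Finset.sum_comm]
    have h2 : ∀ g : H, ∑ l : H →* ℂˣ, ∑ g', f g * conj (f g') * (((l (g' * g⁻¹) : ℂˣ) : ℂ))
        = (Fintype.card H : ℂ) * ((‖f g‖ : ℝ) : ℂ) ^ 2 := by
      intro g
      rw [Finset.sum_comm]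
      have h3 : ∀ g' : H, ∑ l : H →* ℂˣ, f g * conj (f g') * (((l (g' * g⁻¹) : ℂˣ) : ℂ))
          = if g' = g then f g * conj (f g) * (Fintype.card H : ℂ) else 0 := by
        intro g'
        rw [← Finset.mul_sum, sum_dual]
        by_cases h : g' = g
        · subst h
          simp
        · have : g' * g⁻¹ ≠ 1 := fun h' => h (mul_inv_eq_one.1 h')
          simp [h, this]
      rw [Finset.sum_congr rfl (fun g' _ => h3 g'), Finset.sum_ite_eq' Finset.univ g]
      simp only [Finset.mem_univ, if_true]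
      rw [Complex.mul_conj']
      ring
    rw [Finset.sum_congr rfl (fun g _ => h2 g), ← Finset.mul_sum, ← mul_assoc]
    congr 1
    field_simp
  exact_mod_cast key

theorem parseval (F : H → J → ℂ) : ∑ l : H →* ℂˣ, nu (coef F l) = Psi (fun _ => 1) F := by
  simp only [nu, coef, Psi, one_mul]
  rw [Finset.sum_comm]
  rw [Finset.sum_congr rfl (fun j _ => parseval_scalar (fun g => F g j))]
  rw [← Finset.mul_sum, Finset.sum_comm]

open Classical in
/-- the elementary weight attached to a subgroup -/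
noncomputable def wK (K : Subgroup H) (g : H) : ℝ := 1 + (if g ∈ K then 0 else (K.index : ℝ))

omit [Fintype H] in
theorem one_le_wK (K : Subgroup H) (g : H) : 1 ≤ wK K g := by
  unfold wK
  split_ifs
  · simp
  · have : (0 : ℝ) ≤ (K.index : ℝ) := Nat.cast_nonneg _
    linarith

omit [Fintype H] in
theorem nu_tw (a : H →* ℂˣ) (F : H → J → ℂ) (g : H) :
    nu (tw a F g) = ‖1 - ((a g : ℂˣ) : ℂ)‖ ^ 2 * nu (F g) := by
  simp only [nu, tw, norm_mul, mul_pow]
  rw [Finset.mul_sum]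

theorem normSq_one_sub (z : ℂ) (hz : ‖z‖ = 1) : ‖1 - z‖ ^ 2 = 2 - 2 * z.re := by
  have h1 : ‖z‖ ^ 2 = 1 := by rw [hz]; norm_num
  rw [← Complex.normSq_eq_norm_sq] at h1 ⊢
  rw [Complex.normSq_apply] at h1 ⊢
  simp only [Complex.sub_re, Complex.one_re, Complex.sub_im, Complex.one_im]
  nlinarith

open Classical in
theorem sum_annS_normSq (K : Subgroup H) (g : H) :
    ∑ a : annS K, ‖1 - (((a : H →* ℂˣ) g : ℂˣ) : ℂ)‖ ^ 2
      = 2 * (if g ∈ K then 0 else (K.index : ℝ)) := by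
  have h1 : ∀ a : annS K, ‖1 - (((a : H →* ℂˣ) g : ℂˣ) : ℂ)‖ ^ 2
      = 2 - 2 * ((((a : H →* ℂˣ) g : ℂˣ) : ℂ)).re := fun a => normSq_one_sub _ (norm_apply _ _)
  rw [Finset.sum_congr rfl (fun a _ => h1 a), Finset.sum_sub_distrib, ← Finset.mul_sum,
    ← Complex.re_sum, sum_annS]
  simp only [Finset.sum_const, Finset.card_univ, card_annS, nsmul_eq_mul]
  split_ifs <;> simp <;> ring

theorem Psi_step (K : Subgroup H) (W : H → ℝ) (F : H → J → ℂ) :
    Psi (fun g => wK K g * W g) F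
      = Psi W F + (1 / 2) * ∑ a : annS K, Psi W (tw (a : H →* ℂˣ) F) := by
  classical
  simp only [Psi]
  rw [← Finset.mul_sum, Finset.sum_comm]
  have h1 : ∀ g : H, ∑ a : annS K, W g * nu (tw (a : H →* ℂˣ) F g)
      = 2 * (if g ∈ K then 0 else (K.index : ℝ)) * (W g * nu (F g)) := by
    intro g
    rw [← sum_annS_normSq, Finset.sum_mul]
    refine Finset.sum_congr rfl fun a _ => ?_
    rw [nu_tw]
    ring
  rw [Finset.sum_congr rfl (fun g _ => h1 g)]
  rw [mul_left_comm (1 / 2 : ℝ), ← mul_add]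
  congr 1
  rw [Finset.mul_sum, ← Finset.sum_add_distrib]
  refine Finset.sum_congr rfl fun g _ => ?_
  unfold wK
  ring

theorem Psi_mono {W W' : H → ℝ} (h : ∀ g, W g ≤ W' g) (F : H → J → ℂ) : Psi W F ≤ Psi W' F := by
  unfold Psi
  apply mul_le_mul_of_nonneg_left _ (by positivity)
  exact Finset.sum_le_sum fun g _ => mul_le_mul_of_nonneg_right (h g) (nu_nonneg _)

/-- the product weight of a list of subgroups -/
noncomputable def WL (L : List (Subgroup H)) (g : H) : ℝ := (L.map (fun K => wK K g)).prod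

/-- the join of the annihilators -/
def PhiL : List (Subgroup H) → Subgroup (H →* ℂˣ)
  | [] => ⊥
  | K :: L => annS K ⊔ PhiL L

omit [Fintype H] in
theorem annS_le_PhiL (L : List (Subgroup H)) (K : Subgroup H) (hK : K ∈ L) : annS K ≤ PhiL L := by
  induction L with
  | nil => simp at hK
  | cons K' L ih =>
    rcases List.mem_cons.1 hK with rfl | h
    · exact le_sup_left
    · exact (ih h).trans le_sup_right

theorem PhiL_eq_top (L : List (Subgroup H)) (hL : ∀ g, (∀ K ∈ L, g ∈ K) → g = 1) :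
    PhiL L = ⊤ := by
  set e := CommGroup.subgroupOrderIsoSubgroupMonoidHom H ℂ with he
  set K' := e.symm (OrderDual.toDual (PhiL L)) with hK'
  have h1 : K' = ⊥ := by
    rw [eq_bot_iff]
    intro g hg
    rw [hK', CommGroup.mem_subgroupOrderIsoSubgroupMonoidHom_symm_iff] at hg
    rw [Subgroup.mem_bot]
    apply hL
    intro K hK
    apply (CommGroup.forall_monoidHom_apply_eq_one_iff ℂ K g).1
    intro φ hφ
    exact hg φ (annS_le_PhiL L K hK hφ)
  have h2 : OrderDual.toDual (PhiL L) = e K' := by rw [hK', OrderIso.apply_symm_apply]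
  rw [eq_top_iff]
  intro φ _
  have h3 : φ ∈ (e K').ofDual := by
    rw [CommGroup.mem_subgroupOrderIsoSubgroupMonoidHom_iff, h1]
    intro g hg
    rw [Subgroup.mem_bot.1 hg, map_one]
  rw [← h2] at h3
  exact h3

theorem main_ineq (𝒜 : AddSubgroup (J → ℂ)) (c₀ : ℝ) (h𝒜 : ∀ z ∈ 𝒜, z ≠ 0 → c₀ ≤ nu z) :
    ∀ (L : List (Subgroup H)) (F : H → J → ℂ), (∀ l, coef F l ∈ 𝒜) →
      ((sat (coef F) (PhiL L)).card : ℝ) * c₀ ≤ Psi (WL L) F := by
  classical
  intro L
  induction L with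
  | nil =>
    intro F hF
    have h1 : Psi (WL ([] : List (Subgroup H))) F = Psi (fun _ => 1) F := by
      congr 1
    rw [h1, ← parseval]
    calc ((sat (coef F) (PhiL [])).card : ℝ) * c₀ = ∑ l ∈ sat (coef F) (PhiL []), c₀ := by
          rw [Finset.sum_const, nsmul_eq_mul]
      _ ≤ ∑ l ∈ sat (coef F) (PhiL []), nu (coef F l) := by
          refine Finset.sum_le_sum fun l hl => ?_
          obtain ⟨φ, hφ, hc⟩ := (mem_sat _ _ _).1 hl
          have : φ = 1 := Subgroup.mem_bot.1 hφ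
          have h2 : l * φ = l := by rw [this]; exact mul_one l
          rw [h2] at hc
          exact h𝒜 _ (hF l) hc
      _ ≤ ∑ l : H →* ℂˣ, nu (coef F l) :=
          Finset.sum_le_sum_of_subset_of_nonneg (Finset.subset_univ _) fun _ _ _ => nu_nonneg _
  | cons K L ih =>
    intro F hF
    have h1 : Psi (WL (K :: L)) F = Psi (fun g => wK K g * WL L g) F := by
      congr 1
    rw [h1, Psi_step]
    have h2 := ih F hF
    have h3 : ∀ a : annS K, ((sat (fun l => coef F l - coef F (l * (a : H →* ℂˣ)⁻¹))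
        (PhiL L)).card : ℝ) * c₀ ≤ Psi (WL L) (tw (a : H →* ℂˣ) F) := by
      intro a
      have h4 := ih (tw (a : H →* ℂˣ) F) (fun l => by
        rw [coef_tw]
        exact 𝒜.sub_mem (hF _) (hF _))
      have h5 : coef (tw (a : H →* ℂˣ) F) = fun l => coef F l - coef F (l * (a : H →* ℂˣ)⁻¹) := by
        funext l
        rw [coef_tw]
      rwa [h5] at h4
    have h6 := card_sat_sup (coef F) (annS K) (PhiL L)
    have h7 : (2 : ℝ) * ((sat (coef F) (annS K ⊔ PhiL L)).card : ℝ) ≤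
        2 * ((sat (coef F) (PhiL L)).card : ℝ) +
        ∑ a : annS K, ((sat (fun l => coef F l - coef F (l * (a : H →* ℂˣ)⁻¹))
          (PhiL L)).card : ℝ) := by
      exact_mod_cast h6
    have h8 : ∑ a : annS K, ((sat (fun l => coef F l - coef F (l * (a : H →* ℂˣ)⁻¹))
        (PhiL L)).card : ℝ) * c₀ ≤ ∑ a : annS K, Psi (WL L) (tw (a : H →* ℂˣ) F) :=
      Finset.sum_le_sum fun a _ => h3 a
    rw [← Finset.sum_mul] at h8
    by_cases hc : 0 ≤ c₀
    · have h9 := mul_le_mul_of_nonneg_right h7 hc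
      show ((sat (coef F) (annS K ⊔ PhiL L)).card : ℝ) * c₀ ≤ _
      nlinarith
    · push Not at hc
      have h10 : ((sat (coef F) (PhiL (K :: L))).card : ℝ) * c₀ ≤ 0 :=
        mul_nonpos_of_nonneg_of_nonpos (Nat.cast_nonneg _) hc.le
      have h11 : ∀ (W : H → ℝ) (F' : H → J → ℂ), (∀ g, 0 ≤ W g) → 0 ≤ Psi W F' := by
        intro W F' hW
        unfold Psi
        apply mul_nonneg (by positivity)
        exact Finset.sum_nonneg fun g _ => mul_nonneg (hW g) (nu_nonneg _)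
      have h12 : ∀ g, 0 ≤ WL L g := by
        intro g
        unfold WL
        apply List.prod_nonneg
        intro x hx
        obtain ⟨K', _, rfl⟩ := List.mem_map.1 hx
        linarith [one_le_wK K' g]
      have h13 := h11 (WL L) F h12
      have h14 : 0 ≤ ∑ a : annS K, Psi (WL L) (tw (a : H →* ℂˣ) F) :=
        Finset.sum_nonneg fun a _ => h11 _ _ h12
      linarith

/-- **Knörr's lattice inequality** -/
theorem knorr_ineq (𝒜 : AddSubgroup (J → ℂ)) (c₀ : ℝ) (h𝒜 : ∀ z ∈ 𝒜, z ≠ 0 → c₀ ≤ nu z)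
    (L : List (Subgroup H)) (hL : ∀ g, (∀ K ∈ L, g ∈ K) → g = 1)
    (F : H → J → ℂ) (hF : ∀ l, coef F l ∈ 𝒜) (g₀ : H) (hF0 : F g₀ ≠ 0) :
    (Fintype.card H : ℝ) * c₀ ≤ Psi (WL L) F := by
  classical
  have h1 := main_ineq 𝒜 c₀ h𝒜 L F hF
  rw [PhiL_eq_top L hL] at h1
  obtain ⟨l₀, hl₀⟩ : ∃ l₀, coef F l₀ ≠ 0 := by
    by_contra hcon
    push Not at hcon
    have h2 := parseval F
    rw [Finset.sum_eq_zero (fun l _ => by rw [hcon l]; simp [nu])] at h2
    unfold Psi at h2
    have h3 : ∑ g, (1 : ℝ) * nu (F g) = 0 := by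
      have hH : (Fintype.card H : ℝ)⁻¹ ≠ 0 := by
        have : (Fintype.card H : ℝ) ≠ 0 := by exact_mod_cast Fintype.card_ne_zero
        exact inv_ne_zero this
      rcases mul_eq_zero.1 h2.symm with h | h
      · exact absurd h hH
      · exact h
    have h4 := (Finset.sum_eq_zero_iff_of_nonneg
      (fun g _ => by rw [one_mul]; exact nu_nonneg _)).1 h3 g₀ (Finset.mem_univ _)
    rw [one_mul] at h4
    exact hF0 (nu_eq_zero h4)
  have h5 : sat (coef F) (⊤ : Subgroup (H →* ℂˣ)) = Finset.univ := by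
    ext l
    simp only [Finset.mem_univ, iff_true]
    rw [mem_sat]
    refine ⟨l⁻¹ * l₀, Subgroup.mem_top _, ?_⟩
    have h6 : l * (l⁻¹ * l₀) = l₀ := mul_inv_cancel_left l l₀
    rwa [h6]
  rw [h5, Finset.card_univ, card_dual] at h1
  exact h1

end Fourier

end Cfsg.Agent.Lib.Helper78.Knorr
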