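import Cfsg.Agent.Lib.Helper78.KnorrA

/-!
# Knörr's weight: the module lemma (helper78)

`H` finite abelian acting coprimely on a finite abelian group `V`.  Every `H`-invariant subgroup `U`
admits a list `L` of subgroups of `H` with `∏_{K∈L} (1 + [H:K][g∉K]) ≤ |[U,g]|` and
`⋂ L ≤ C_H(U)`.
-/

set_option autoImplicit false

namespace Cfsg.Agent.Lib.Helper78.Knorr

section Module

variable {H : Type*} [CommGroup H] [Fintype H] {V : Type*} [CommGroup V] [Finite V]
  [MulDistribMulAction H V]

/-- `u ↦ (g • u) u⁻¹` -/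
def dl (g : H) : V →* V where
  toFun u := (g • u) * u⁻¹
  map_one' := by simp
  map_mul' a b := by rw [smul_mul', mul_inv]; exact mul_mul_mul_comm _ _ _ _

omit [Fintype H] [Finite V] in
theorem dl_apply (g : H) (u : V) : dl g u = (g • u) * u⁻¹ := rfl

omit [Fintype H] [Finite V] in
theorem dl_eq_one_iff (g : H) (u : V) : dl g u = 1 ↔ g • u = u := mul_inv_eq_one

omit [Fintype H] [Finite V] in
theorem smul_dl (h g : H) (u : V) : h • dl g u = dl g (h • u) := by
  rw [dl_apply, dl_apply, smul_mul', smul_inv', smul_smul, smul_smul, mul_comm h g]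

omit [Fintype H] [Finite V] in
theorem dl_comm (h g : H) (u : V) : dl h (dl g u) = dl g (dl h u) := by
  rw [dl_apply h, smul_dl, ← map_inv, ← map_mul, ← dl_apply]

omit [Finite V] in
theorem eq_one_of_smul (hcop : (Fintype.card H).Coprime (Nat.card V)) (g : H) (u y : V)
    (h1 : g • u = u * y) (h2 : g • y = y) : y = 1 := by
  have h3 : ∀ k : ℕ, g ^ k • u = u * y ^ k := by
    intro k
    induction k with
    | zero => simp
    | succ k ih =>
      rw [pow_succ', mul_smul, ih, smul_mul', h1, smul_pow', h2, pow_succ', mul_assoc]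
  have h4 := h3 (Fintype.card H)
  rw [pow_card_eq_one, one_smul] at h4
  have h5 : y ^ Fintype.card H = 1 := by simpa using h4.symm
  have h6 : y ^ Nat.card V = 1 := pow_card_eq_one'
  have h7 : orderOf y ∣ 1 := by
    rw [← Nat.Coprime.gcd_eq_one hcop]
    exact Nat.dvd_gcd (orderOf_dvd_of_pow_eq_one h5) (orderOf_dvd_of_pow_eq_one h6)
  exact orderOf_eq_one_iff.1 (Nat.dvd_one.1 h7)

omit [Fintype H] [Finite V] in
theorem WL_append (L₁ L₂ : List (Subgroup H)) (g : H) : WL (L₁ ++ L₂) g = WL L₁ g * WL L₂ g := by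
  simp [WL]

omit [Fintype H] in
theorem WL_nonneg (L : List (Subgroup H)) (g : H) : 0 ≤ WL L g := by
  unfold WL
  apply List.prod_nonneg
  intro x hx
  obtain ⟨K', _, rfl⟩ := List.mem_map.1 hx
  linarith [one_le_wK K' g]

/-- pointwise stabiliser -/
def fixer (U : Subgroup V) : Subgroup H where
  carrier := {g | ∀ u ∈ U, g • u = u}
  one_mem' := fun u _ => one_smul _ u
  mul_mem' := fun {a b} ha hb u hu => by rw [mul_smul, hb u hu, ha u hu]
  inv_mem' := fun {a} ha u hu => by rw [inv_smul_eq_iff, ha u hu]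

omit [Fintype H] [Finite V] in
theorem mem_fixer (U : Subgroup V) (g : H) : g ∈ fixer U ↔ ∀ u ∈ U, g • u = u := Iff.rfl

theorem exists_list (hcop : (Fintype.card H).Coprime (Nat.card V)) (U : Subgroup V)
    (hU : ∀ g : H, ∀ u ∈ U, g • u ∈ U) :
    ∃ L : List (Subgroup H), (∀ g, WL L g ≤ (Nat.card (U.map (dl g)) : ℝ)) ∧
      (∀ g : H, (∀ K ∈ L, g ∈ K) → ∀ u ∈ U, g • u = u) := by
  classical
  induction U using WellFoundedLT.induction with
  | ind U ih =>
  by_cases hfree : ∀ g : H, g ∈ fixer U ∨ ∀ u ∈ U, g • u = u → u = 1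
  · -- free case
    refine ⟨[fixer U], ?_, ?_⟩
    · intro g
      have hW : WL [fixer U] g = wK (fixer U) g := by simp [WL]
      rw [hW]
      unfold wK
      split_ifs with hg
      · rw [add_zero]
        exact_mod_cast Nat.one_le_iff_ne_zero.2 Nat.card_pos.ne'
      · have hg' : ∀ u ∈ U, g • u = u → u = 1 := (hfree g).resolve_left hg
        have hcard : Nat.card U ≤ Nat.card (U.map (dl g)) := by
          apply Nat.card_le_card_of_injective
            (fun u : U => (⟨dl g u, Subgroup.mem_map_of_mem _ u.2⟩ : U.map (dl g)))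
          intro a b hab
          have h1 : dl g (a : V) = dl g (b : V) := congrArg Subtype.val hab
          have h2 : dl g ((a : V) * (b : V)⁻¹) = 1 := by
            rw [map_mul, map_inv, h1, mul_inv_cancel]
          have h3 := hg' _ (U.mul_mem a.2 (U.inv_mem b.2)) ((dl_eq_one_iff _ _).1 h2)
          exact Subtype.ext (mul_inv_eq_one.1 h3)
        obtain ⟨u₀, hu₀, hgu₀⟩ : ∃ u₀ ∈ U, g • u₀ ≠ u₀ := by
          by_contra hcon
          push Not at hcon
          exact hg hcon
        have hu₀1 : u₀ ≠ 1 := by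
          rintro rfl
          exact hgu₀ (smul_one g)
        have hstab : MulAction.stabilizer H u₀ = fixer U := by
          ext h
          rw [MulAction.mem_stabilizer_iff]
          constructor
          · intro hh
            rcases hfree h with h1 | h1
            · exact h1
            · exact absurd (h1 u₀ hu₀ hh) hu₀1
          · intro hh
            exact hh u₀ hu₀
        have hidx : (fixer U : Subgroup H).index = (MulAction.orbit H u₀).ncard := by
          rw [← hstab, MulAction.index_stabilizer]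
        have h1orb : (1 : V) ∉ MulAction.orbit H u₀ := by
          rintro ⟨h, hh⟩
          apply hu₀1
          have : h • u₀ = 1 := hh
          rw [smul_eq_iff_eq_inv_smul, smul_one] at this
          exact this
        have hsub : insert (1 : V) (MulAction.orbit H u₀) ⊆ (U : Set V) := by
          intro x hx
          rcases Set.mem_insert_iff.1 hx with rfl | ⟨h, rfl⟩
          · exact U.one_mem
          · exact hU h u₀ hu₀
        have hle := Set.ncard_le_ncard hsub (Set.toFinite _)
        rw [Set.ncard_insert_of_notMem h1orb (Set.toFinite _)] at hle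
        have hle' : (fixer U : Subgroup H).index + 1 ≤ Nat.card U := by
          rw [hidx]
          exact hle
        have : 1 + (fixer U : Subgroup H).index ≤ Nat.card (U.map (dl g)) := by omega
        exact_mod_cast this
    · intro g hg
      exact hg (fixer U) (by simp)
  · push Not at hfree
    obtain ⟨g₀, hg₀, w, hwU, hgw, hw1⟩ := hfree
    set U₁ : Subgroup V := U ⊓ (dl g₀).ker with hU₁
    set U₂ : Subgroup V := U.map (dl g₀) with hU₂
    have hU₂le : U₂ ≤ U := by
      rintro _ ⟨u, hu, rfl⟩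
      exact U.mul_mem (hU g₀ u hu) (U.inv_mem hu)
    have hdisj : ∀ y, y ∈ U₁ → y ∈ U₂ → y = 1 := by
      rintro _ hy1 ⟨u, hu, rfl⟩
      apply eq_one_of_smul hcop g₀ u
      · rw [dl_apply, mul_comm, inv_mul_cancel_right]
      · exact (dl_eq_one_iff _ _).1 hy1.2
    have hwU₁ : w ∈ U₁ := ⟨hwU, (dl_eq_one_iff _ _).2 hgw⟩
    have hU₁lt : U₁ < U := by
      refine lt_of_le_of_ne inf_le_left ?_
      intro h
      apply hg₀
      intro u hu
      rw [← h] at hu
      exact (dl_eq_one_iff _ _).1 hu.2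
    have hU₂lt : U₂ < U := by
      refine lt_of_le_of_ne hU₂le ?_
      intro h
      apply hw1
      apply hdisj w hwU₁
      rw [h]
      exact hwU
    have hU₁inv : ∀ g : H, ∀ u ∈ U₁, g • u ∈ U₁ := by
      intro g u hu
      refine ⟨hU g u hu.1, ?_⟩
      show g • u ∈ (dl g₀).ker
      rw [MonoidHom.mem_ker, ← smul_dl, MonoidHom.mem_ker.1 hu.2, smul_one]
    have hU₂inv : ∀ g : H, ∀ u ∈ U₂, g • u ∈ U₂ := by
      rintro g _ ⟨u, hu, rfl⟩
      rw [smul_dl]
      exact Subgroup.mem_map_of_mem _ (hU g u hu)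
    obtain ⟨L₁, hL₁a, hL₁b⟩ := ih U₁ hU₁lt hU₁inv
    obtain ⟨L₂, hL₂a, hL₂b⟩ := ih U₂ hU₂lt hU₂inv
    refine ⟨L₁ ++ L₂, ?_, ?_⟩
    · intro g
      rw [WL_append]
      have h1 : WL L₁ g * WL L₂ g ≤
          (Nat.card (U₁.map (dl g)) : ℝ) * (Nat.card (U₂.map (dl g)) : ℝ) :=
        mul_le_mul (hL₁a g) (hL₂a g) (WL_nonneg _ _) (Nat.cast_nonneg _)
      refine h1.trans ?_
      have h2 : Nat.card (U₁.map (dl g)) * Nat.card (U₂.map (dl g)) ≤ Nat.card (U.map (dl g)) := by
        rw [← Nat.card_prod]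
        apply Nat.card_le_card_of_injective
          (fun ab : (U₁.map (dl g)) × (U₂.map (dl g)) =>
            (⟨(ab.1 : V) * (ab.2 : V), by
              obtain ⟨a, ha, ha'⟩ := ab.1.2
              obtain ⟨b, hb, hb'⟩ := ab.2.2
              rw [← ha', ← hb', ← map_mul]
              exact Subgroup.mem_map_of_mem _ (U.mul_mem ha.1 (hU₂le hb))⟩ : U.map (dl g)))
        rintro ⟨⟨a, ha⟩, ⟨b, hb⟩⟩ ⟨⟨a', ha'⟩, ⟨b', hb'⟩⟩ hab
        have h3 : a * b = a' * b' := congrArg Subtype.val hab
        have hm1 : ∀ x, x ∈ U₁.map (dl g) → x ∈ U₁ := by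
          rintro _ ⟨u, hu, rfl⟩
          exact U₁.mul_mem (hU₁inv g u hu) (U₁.inv_mem hu)
        have hm2 : ∀ x, x ∈ U₂.map (dl g) → x ∈ U₂ := by
          rintro _ ⟨u, hu, rfl⟩
          exact U₂.mul_mem (hU₂inv g u hu) (U₂.inv_mem hu)
        have h4 : a'⁻¹ * a = b' * b⁻¹ := by
          rw [inv_mul_eq_iff_eq_mul, ← mul_assoc, ← h3, mul_inv_cancel_right]
        have h5 : a'⁻¹ * a = 1 := by
          apply hdisj
          · exact U₁.mul_mem (U₁.inv_mem (hm1 _ ha')) (hm1 _ ha)
          · rw [h4]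
            exact U₂.mul_mem (hm2 _ hb') (U₂.inv_mem (hm2 _ hb))
        have h6 : a = a' := (inv_mul_eq_one.1 h5).symm
        have h7 : b = b' := by
          rw [h5] at h4
          exact (mul_inv_eq_one.1 h4.symm).symm
        subst h6 h7
        rfl
      exact_mod_cast h2
    · intro g hg u hu
      have hg1 : ∀ x ∈ U₁, g • x = x := hL₁b g (fun K hK => hg K (List.mem_append_left _ hK))
      have hg2 : ∀ x ∈ U₂, g • x = x := hL₂b g (fun K hK => hg K (List.mem_append_right _ hK))
      have hy : dl g u ∈ U₁ := by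
        refine ⟨U.mul_mem (hU g u hu) (U.inv_mem hu), ?_⟩
        show dl g u ∈ (dl g₀).ker
        rw [MonoidHom.mem_ker, dl_comm, dl_eq_one_iff]
        exact hg2 _ (Subgroup.mem_map_of_mem _ hu)
      have hy1 : dl g u = 1 := by
        apply eq_one_of_smul hcop g u
        · rw [dl_apply, mul_comm, inv_mul_cancel_right]
        · exact hg1 _ hy
      exact (dl_eq_one_iff _ _).1 hy1

end Module

end Cfsg.Agent.Lib.Helper78.Knorr
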