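import Cfsg.Agent.Lib.Helper78.KnorrB
import Cfsg.Agent.Lib.Helper78.GaloisPkg
import Cfsg.Agent.Lib.Helper15.CyclicGl
import Cfsg.Agent.Lib.Helper80.Core
import Cfsg.Agent.Lib.Helper76.Eigen
import Cfsg.Agent.S0133

/-!
# Knörr's abelian-stabiliser criterion, abstract form (helper78)
-/

set_option autoImplicit false

namespace Cfsg.Agent.Lib.Helper78.Knorr

open Cfsg Cfsg.Agent.Lib
open scoped ComplexConjugate

section

variable {H : Type*} [CommGroup H] [Fintype H] {V : Type*} [CommGroup V] [Finite V]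
  [MulDistribMulAction H V] {J : Type*} [Fintype J]

theorem knorr_module (hcop : (Fintype.card H).Coprime (Nat.card V))
    (hfaith : ∀ g : H, (∀ u : V, g • u = u) → g = 1)
    (𝒜 : AddSubgroup (J → ℂ)) (c₀ : ℝ) (h𝒜 : ∀ z ∈ 𝒜, z ≠ 0 → c₀ ≤ nu z)
    (F : H → J → ℂ) (hF : ∀ l, coef F l ∈ 𝒜) (g₀ : H) (hF0 : F g₀ ≠ 0) :
    (Fintype.card H : ℝ) * c₀ ≤
      Psi (fun g : H => (Nat.card ((⊤ : Subgroup V).map (dl g)) : ℝ)) F := by
  obtain ⟨L, hL1, hL2⟩ := exists_list hcop (⊤ : Subgroup V) (fun _ _ _ => Subgroup.mem_top _)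
  refine (knorr_ineq 𝒜 c₀ h𝒜 L ?_ F hF g₀ hF0).trans (Psi_mono hL1 F)
  intro g hg
  exact hfaith g (fun u => hL2 g hg u (Subgroup.mem_top _))

omit [Fintype H] [Finite V] in
theorem card_map_mul_card_ker (g : H) :
    Nat.card ((⊤ : Subgroup V).map (dl g)) * Nat.card (dl g : V →* V).ker = Nat.card V := by
  rw [← MonoidHom.range_eq_map, ← Subgroup.index_ker, mul_comm, Subgroup.card_mul_index]

end

theorem knorr_abstract {X : Type*} [Group X] [Finite X] (p : ℕ) [Fact p.Prime]
    {H : Type*} [CommGroup H] [Fintype H] {V : Type*} [CommGroup V] [Finite V]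
    [MulDistribMulAction H V]
    (hcop : (Fintype.card H).Coprime (Nat.card V))
    (hfaith : ∀ g : H, (∀ u : V, g • u = u) → g = 1)
    (A : Subgroup X) (e : H ≃* A) (v : X) (hvp : v ^ p = 1)
    (hcomm : ∀ a ∈ A, a * v = v * a)
    (hne : ∀ χ : IrrCharacter X, (χ : X → ℂ) v ≠ 0)
    (hcent : ∀ (g : H) (k : ℕ), k.Coprime p →
      Nat.card (Subgroup.centralizer ({v ^ k * (e g : X)} : Set X)) ≤
        Fintype.card H * Nat.card (dl g : V →* V).ker) :
    Nat.card (ConjClasses X) ≤ Nat.card V := by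
  classical
  have : Fintype X := Fintype.ofFinite X
  have hp : p.Prime := Fact.out
  have : NeZero p := ⟨hp.ne_zero⟩
  obtain ⟨τ, hτ1, hτ2⟩ := galois_pkg p
  let 𝒜 : AddSubgroup ((ZMod p)ˣ → ℂ) :=
    { carrier := {z | ∃ α ∈ rootRing p, ∀ j, z j = τ j α}
      zero_mem' := ⟨0, Subring.zero_mem _, fun j => by simp⟩
      add_mem' := by
        rintro a b ⟨α, hα, ha⟩ ⟨β, hβ, hb⟩
        exact ⟨α + β, Subring.add_mem _ hα hβ, fun j => by rw [Pi.add_apply, ha, hb, map_add]⟩
      neg_mem' := by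
        rintro a ⟨α, hα, ha⟩
        exact ⟨-α, Subring.neg_mem _ hα, fun j => by rw [Pi.neg_apply, ha, map_neg]⟩ }
  have h𝒜 : ∀ z ∈ 𝒜, z ≠ 0 → (Fintype.card (ZMod p)ˣ : ℝ) ≤ nu z := by
    rintro z ⟨α, hα, hz⟩ hz0
    have hα0 : α ≠ 0 := by
      rintro rfl
      apply hz0
      funext j
      rw [hz j, map_zero]
      rfl
    refine (hτ2 α hα hα0).trans (le_of_eq ?_)
    unfold nu
    exact Finset.sum_congr rfl fun j _ => by rw [hz j]
  let F : IrrCharacter X → H → (ZMod p)ˣ → ℂ :=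
    fun χ h j => (χ : X → ℂ) (v ^ (j : ZMod p).val * (e h : X))
  have hcommk : ∀ (a : A) (k : ℕ), (a : X) * v ^ k = v ^ k * a := by
    intro a k
    have : Commute (a : X) v := hcomm a a.2
    exact this.pow_right k
  have hcardHA : Fintype.card H = Nat.card A := by
    rw [← Nat.card_eq_fintype_card]
    exact Nat.card_congr e.toEquiv
  have hF : ∀ (χ : IrrCharacter X) (l : H →* ℂˣ), coef (F χ) l ∈ 𝒜 := by
    intro χ l
    let B : Subgroup X := Subgroup.zpowers v
    let φ : A → ℂ := fun c => (((l.comp e.symm.toMonoidHom) c : ℂˣ) : ℂ)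
    have hφ : IsIrrCharacter A φ := Helper74.isIrrCharacter_of_hom (l.comp e.symm.toMonoidHom)
    have hχ : IsCharacter X (χ : X → ℂ) := Helper74.IsIrrCharacter.isCharacter χ.2
    have hcommB : ∀ a ∈ A, ∀ b ∈ B, a * b = b * a := by
      intro a ha b hb
      obtain ⟨k, rfl⟩ := Subgroup.mem_zpowers_iff.1 hb
      have : Commute a v := hcomm a ha
      exact this.zpow_right k
    obtain ⟨n, ρ, hρ⟩ := Helper15.char_partInner A B hcommB hχ hφ
    obtain ⟨μ, hμ1, hμ2⟩ := Helper76.exists_char_eigenvalues ρ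
      (⟨v, Subgroup.mem_zpowers v⟩ : B) p hp.pos (Subtype.ext (by simpa using hvp))
    refine ⟨∑ i, μ i, Subring.sum_mem _ (fun i _ => mem_rootRing_of_pow (hμ1 i)), ?_⟩
    intro j
    rw [map_sum, Finset.sum_congr rfl (fun i _ => hτ1 j (μ i) (hμ1 i)), ← hμ2, hρ]
    unfold Helper15.partInner coef
    rw [hcardHA]
    congr 1
    rw [← Equiv.sum_comp e.toEquiv]
    refine Finset.sum_congr rfl fun g _ => ?_
    simp only [F, φ]
    have h1 : (((e.toEquiv g : A) : X) * (((⟨v, Subgroup.mem_zpowers v⟩ : B) ^ (j : ZMod p).val : B) : X))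
        = v ^ (j : ZMod p).val * (e g : X) := by
      rw [Subgroup.coe_pow]
      exact hcommk (e g) _
    rw [h1, mul_comm]
    congr 2
    simp
  set w : H → ℝ := fun g : H => (Nat.card ((⊤ : Subgroup V).map (dl g)) : ℝ) with hw
  have hlow : ∀ χ : IrrCharacter X,
      (Fintype.card H : ℝ) * (Fintype.card (ZMod p)ˣ : ℝ) ≤ Psi w (F χ) := by
    intro χ
    apply knorr_module hcop hfaith 𝒜 _ h𝒜 (F χ) (hF χ) 1
    intro h0
    have h1 := congrFun h0 1
    simp only [F, map_one, Subgroup.coe_one, mul_one, Units.val_one, Pi.zero_apply] at h1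
    have hp1 : (1 : ZMod p).val = 1 := by
      have : Fact (1 < p) := ⟨hp.one_lt⟩
      exact ZMod.val_one p
    rw [hp1, pow_one] at h1
    exact hne χ h1
  have hcol : ∀ x : X, ∑ χ : IrrCharacter X, ‖(χ : X → ℂ) x‖ ^ 2
      = (Nat.card (Subgroup.centralizer ({x} : Set X)) : ℝ) := by
    intro x
    have hco := Helper80.col_orth x x
    rw [if_pos (IsConj.refl _)] at hco
    have : ((∑ χ : IrrCharacter X, ‖(χ : X → ℂ) x‖ ^ 2 : ℝ) : ℂ)
        = ((Nat.card (Subgroup.centralizer ({x} : Set X)) : ℝ) : ℂ) := by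
      push_cast
      rw [← hco]
      apply Finset.sum_congr rfl
      intro χ _
      rw [Complex.mul_conj, Complex.normSq_eq_norm_sq]
      push_cast
      rfl
    exact_mod_cast this
  have hHpos : (0 : ℝ) < Fintype.card H := by exact_mod_cast Fintype.card_pos
  have hJpos : (0 : ℝ) < Fintype.card (ZMod p)ˣ := by exact_mod_cast Fintype.card_pos
  have hup : ∑ χ : IrrCharacter X, Psi w (F χ) ≤
      (Fintype.card H : ℝ) * (Fintype.card (ZMod p)ˣ : ℝ) * (Nat.card V : ℝ) := by
    unfold Psi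
    rw [← Finset.mul_sum, Finset.sum_comm]
    have h1 : ∀ g : H, ∑ χ : IrrCharacter X, w g * nu (F χ g) ≤
        (Fintype.card (ZMod p)ˣ : ℝ) * ((Fintype.card H : ℝ) * (Nat.card V : ℝ)) := by
      intro g
      rw [← Finset.mul_sum]
      unfold nu
      rw [Finset.sum_comm]
      simp only [F]
      rw [Finset.sum_congr rfl (fun j _ => hcol _), Finset.mul_sum]
      have h2 : ∀ j : (ZMod p)ˣ, w g * (Nat.card (Subgroup.centralizer
          ({v ^ (j : ZMod p).val * (e g : X)} : Set X)) : ℝ) ≤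
          (Fintype.card H : ℝ) * (Nat.card V : ℝ) := by
        intro j
        have h3 := hcent g (j : ZMod p).val ((ZMod.val_coe_unit_coprime j))
        have h4 := card_map_mul_card_ker (V := V) g
        have h5 : Nat.card ((⊤ : Subgroup V).map (dl g)) * Nat.card (Subgroup.centralizer
          ({v ^ (j : ZMod p).val * (e g : X)} : Set X)) ≤ Fintype.card H * Nat.card V := by
          calc _ ≤ Nat.card ((⊤ : Subgroup V).map (dl g)) *
                (Fintype.card H * Nat.card (dl g : V →* V).ker) := Nat.mul_le_mul_left _ h3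
            _ = Fintype.card H * Nat.card V := by rw [← h4]; ring
        show (Nat.card ((⊤ : Subgroup V).map (dl g)) : ℝ) * _ ≤ _
        exact_mod_cast h5
      refine (Finset.sum_le_sum fun j _ => h2 j).trans (le_of_eq ?_)
      rw [Finset.sum_const, Finset.card_univ, nsmul_eq_mul]
    have h6 := Finset.sum_le_sum (fun g (_ : g ∈ (Finset.univ : Finset H)) => h1 g)
    rw [Finset.sum_const, Finset.card_univ, nsmul_eq_mul] at h6
    calc _ ≤ (Fintype.card H : ℝ)⁻¹ * ((Fintype.card H : ℝ) * ((Fintype.card (ZMod p)ˣ : ℝ) *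
            ((Fintype.card H : ℝ) * (Nat.card V : ℝ)))) :=
          mul_le_mul_of_nonneg_left h6 (by positivity)
      _ = _ := by field_simp
  have hlow' : (Fintype.card (IrrCharacter X) : ℝ) *
      ((Fintype.card H : ℝ) * (Fintype.card (ZMod p)ˣ : ℝ)) ≤ ∑ χ : IrrCharacter X, Psi w (F χ) := by
    have := Finset.sum_le_sum (fun χ (_ : χ ∈ (Finset.univ : Finset (IrrCharacter X))) => hlow χ)
    rwa [Finset.sum_const, Finset.card_univ, nsmul_eq_mul] at this
  have hfin : (Fintype.card (IrrCharacter X) : ℝ) ≤ (Nat.card V : ℝ) := by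
    have h7 := hlow'.trans hup
    have h8 : (0 : ℝ) < (Fintype.card H : ℝ) * (Fintype.card (ZMod p)ˣ : ℝ) := by positivity
    rw [mul_comm] at h7
    exact le_of_mul_le_mul_left h7 h8
  rw [← Cfsg.Agent.S0133.result, Nat.card_eq_fintype_card]
  exact_mod_cast hfin

end Cfsg.Agent.Lib.Helper78.Knorr
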