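import Mathlib
import Cfsg.Agent.Lib.Helper77.Klein
import Cfsg.Agent.Lib.Helper77.Abel

/-!
# R8 of S4648 (helper78): `l(B) = 1`, `|D| = k(B) ≤ 4` implies `B` nilpotent
-/

set_option autoImplicit false

namespace Cfsg.Agent.Lib.Helper78.SymAlgR8

open Cfsg Cfsg.Agent.Lib.Helper77 Cfsg.Agent.Lib.Helper78

theorem R8 {G : Type*} [Group G] [Finite G] (p : ℕ) [Fact p.Prime] (M : Ideal Cfsg.AlgInt)
    (hM : Cfsg.IsPModular p M) (B : Set (Cfsg.IrrCharacter G)) (hB : Cfsg.IsPBlock M B)
    (D : Subgroup G) (hD : Cfsg.IsDefectGroup p M B D) (hl : Cfsg.blockRank p B = 1)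
    (hk : Nat.card D = Nat.card B) (h4 : Nat.card D ≤ 4) : Cfsg.IsNilpotentBlock p M B := by
  classical
  have : M.IsPrime := Cfsg.Agent.Lib.Helper78.pmod_isPrime hM
  have := Fintype.ofFinite G
  have hp : p.Prime := Fact.out
  obtain ⟨y, hy, hyb⟩ := exists_isAMax_block M hM hB
  have hyD := isDefectGroup_of_isAMax M hM hB hy hyb
  have hcard : Nat.card y.1 = Nat.card D := by
    rw [card_of_isDefectGroup hM hB hyD, card_of_isDefectGroup hM hB hD]
  have hcardB : Nat.card y.1 = Nat.card B := hcard.trans hk
  have hle4 : Nat.card y.1 ≤ 4 := hcard ▸ h4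
  have hPp : IsPGroup p y.1 := hy.1.1
  obtain ⟨n, hn⟩ := IsPGroup.iff_card.mp hPp
  rw [isNilpotentBlock_iff M hM]
  refine ⟨hB, ?_⟩
  by_cases hcyc : IsCyclic y.1
  · have hab := le_cen_of_isCyclic hcyc
    rw [isANil_iff_of_abelian M hM hB hy hyb hab]
    by_contra hcon
    have hfree : ∀ g ∈ stabP y, ∀ x ∈ y.1, x ≠ 1 → g * x * g⁻¹ = x → g ∈ Cen y.1 :=
      fun g hg x hx hx1 hfix => mem_cen_of_fix_cyclic M hM hy hcyc hg hx hx1 hfix
    obtain ⟨g, hg, hgC⟩ := SetLike.not_le_iff_exists.1 hcon
    have hgN : g ∈ Subgroup.normalizer (y.1 : Set G) := stabP_le_normalizer _ hg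
    have hne : y.1 ≠ ⊥ := by
      intro h
      apply hgC
      rw [h, cen_bot]
      exact Subgroup.mem_top g
    have hn0 : n ≠ 0 := by
      rintro rfl
      rw [pow_zero] at hn
      exact hne ((Subgroup.card_eq_one).1 hn)
    have hp3 : p = 3 := by
      by_contra hp3
      have hp2 : p = 2 := by
        by_contra hp2
        have h5 : 5 ≤ p := by
          have := hp.two_le
          by_contra h5
          have : p = 4 := by omega
          rw [this] at hp
          exact absurd hp (by norm_num)
        have : p ≤ p ^ n := Nat.le_self_pow hn0 p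
        omega
      subst hp2
      have hdvd : 2 ∣ Nat.card y.1 := by rw [hn]; exact dvd_pow_self 2 hn0
      obtain ⟨x, hx⟩ := exists_prime_orderOf_dvd_card' (G := y.1) 2 hdvd
      have hx2 : (x : G) ^ 2 = 1 := by
        have := pow_orderOf_eq_one x
        rw [hx] at this
        simpa using congrArg Subtype.val this
      have hx1 : (x : G) ≠ 1 := by
        intro h
        have : x = 1 := Subtype.ext h
        rw [this, orderOf_one] at hx
        omega
      obtain ⟨k, hk'⟩ := exists_zpow_of_normalizer_cyclic hcyc hgN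
      have h1 := hk' x x.2
      rcases Int.even_or_odd' k with ⟨m, rfl | rfl⟩
      · rw [zpow_mul, zpow_ofNat, hx2, one_zpow] at h1
        apply hx1
        have : (x : G) = g⁻¹ * (g * x * g⁻¹) * g := by group
        rw [this, h1]
        group
      · rw [zpow_add, zpow_mul, zpow_ofNat, hx2, one_zpow, one_mul, zpow_one] at h1
        exact hgC (hfree g hg x x.2 hx1 h1)
    subst hp3
    have hn1 : n = 1 := by
      by_contra hn1
      have h2 : 2 ≤ n := by omega
      have : 3 ^ 2 ≤ 3 ^ n := Nat.pow_le_pow_right (by norm_num) h2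
      omega
    rw [hn1, pow_one] at hn
    have htrans : ∀ a ∈ y.1, a ≠ 1 → ∀ v ∈ y.1, v ≠ 1 → ∃ t ∈ stabP y, t * a * t⁻¹ = v := by
      intro a ha ha1 v hv hv1
      have hb : g * a * g⁻¹ ∈ y.1 := (Subgroup.mem_normalizer_iff.1 hgN a).1 ha
      have hba : g * a * g⁻¹ ≠ a := fun h => hgC (hfree g hg a ha ha1 h)
      have hb1 : g * a * g⁻¹ ≠ 1 := by
        intro h
        apply ha1
        have : a = g⁻¹ * (g * a * g⁻¹) * g := by group
        rw [this, h]
        group
      let s : Finset y.1 := {1, ⟨a, ha⟩, ⟨g * a * g⁻¹, hb⟩}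
      have hs : s.card = 3 := by
        apply Finset.card_eq_three.2
        refine ⟨1, ⟨a, ha⟩, ⟨g * a * g⁻¹, hb⟩, ?_, ?_, ?_, rfl⟩
        · intro h
          exact ha1 (congrArg Subtype.val h).symm
        · intro h
          exact hb1 (congrArg Subtype.val h).symm
        · intro h
          exact hba (congrArg Subtype.val h).symm
      have hsu : s = Finset.univ := by
        apply Finset.eq_univ_of_card
        rw [hs, ← Nat.card_eq_fintype_card, hn]
      have hvs : (⟨v, hv⟩ : y.1) ∈ s := by rw [hsu]; exact Finset.mem_univ _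
      simp only [s, Finset.mem_insert, Finset.mem_singleton] at hvs
      rcases hvs with h | h | h
      · exact absurd (congrArg Subtype.val h) hv1
      · refine ⟨1, Subgroup.one_mem _, ?_⟩
        have := congrArg Subtype.val h
        simp only at this
        rw [this]
        group
      · exact ⟨g, hg, (congrArg Subtype.val h).symm⟩
    have hk1 := card_eq_of_transitive M hM hB hy hyb hab hfree htrans hne
    omega
  · have hn2 : 2 ≤ n := by
      by_contra h
      have : n = 0 ∨ n = 1 := by omega
      rcases this with rfl | rfl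
      · rw [pow_zero] at hn
        have : Subsingleton y.1 := (Nat.card_eq_one_iff_unique.1 hn).1
        exact hcyc isCyclic_of_subsingleton
      · rw [pow_one] at hn
        exact hcyc (isCyclic_of_prime_card hn)
    have hp2 : p = 2 := by
      by_contra hp2
      have h3 : 3 ≤ p := by
        have := hp.two_le
        omega
      have h9 : 3 ^ 2 ≤ p ^ n :=
        (Nat.pow_le_pow_left h3 2).trans (Nat.pow_le_pow_right (by omega) hn2)
      omega
    subst hp2
    have hn2' : n = 2 := by
      by_contra h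
      have h3 : 3 ≤ n := by omega
      have : 2 ^ 3 ≤ 2 ^ n := Nat.pow_le_pow_right (by norm_num) h3
      omega
    rw [hn2'] at hn
    have hV : IsKleinFour y.1 :=
      ⟨by rw [hn]; norm_num, (not_isCyclic_iff_exponent_eq_prime Nat.prime_two hn).1 hcyc⟩
    have hab := le_cen_of_isKleinFour hV
    rw [isANil_iff_of_abelian M hM hB hy hyb hab]
    have hTN : stabP y ≤ Subgroup.normalizer (y.1 : Set G) := stabP_le_normalizer _
    have hodd : ∀ g ∈ stabP y, g ^ 2 ∈ Cen y.1 → g ∈ Cen y.1 := fun g hg h =>
      mem_cen_of_pow_mem_of_abelian M hM hy hab hg (a := 1) (by rw [pow_one]; exact h)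
    obtain ⟨h13, hfree, htrans⟩ := klein_index hV hTN hodd
    have hne : y.1 ≠ ⊥ := by
      intro h
      rw [h, Subgroup.card_bot] at hn
      omega
    rcases h13 with h1 | h3
    · exact Subgroup.relIndex_eq_one.1 h1
    · have hk1 := card_eq_of_transitive M hM hB hy hyb hab hfree (htrans h3) hne
      omega

end Cfsg.Agent.Lib.Helper78.SymAlgR8
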